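import Mathlib
import Cfsg.Agent.S1012

/-!
# Recognition of the binary octahedral group

A finite group with a unique involution, cyclic or quaternion Sylow subgroups and element orders
`1, 2, 3, 4, 6, 8` (with 3 and 8 occurring) is `Z . S₄` with `|Z| = 2`.
-/

set_option autoImplicit false
set_option linter.unusedSectionVars false
set_option linter.style.haveILetI false

namespace Cfsg.Agent.H406.OctStruct

open Subgroup

variable {H : Type*} [Group H] [Finite H]

theorem exists_center (horder : ∀ h : H, orderOf h ∈ ({1, 2, 3, 4, 6, 8} : Set ℕ))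
    (hinv : ∃ s : H, orderOf s = 2 ∧ ∀ t : H, orderOf t = 2 → t = s)
    (hsyl : ∀ (p : ℕ) [Fact p.Prime] (P : Sylow p H),
      IsCyclic P ∨ ∃ n : ℕ, Nonempty (P ≃* QuaternionGroup (2 ^ n)))
    (h8 : ∃ h : H, orderOf h = 8) (h3 : ∃ h : H, orderOf h = 3) :
    ∃ (Z : Subgroup H) (_ : Z.Normal), Nat.card Z = 2 ∧ (∀ Z' : Subgroup H, Nat.card Z' = 2 → Z' = Z) ∧
      Nonempty (H ⧸ Z ≃* Equiv.Perm (Fin 4)) := by
  haveI : Fact (Nat.Prime 2) := ⟨Nat.prime_two⟩
  haveI : Fact (Nat.Prime 3) := ⟨Nat.prime_three⟩
  obtain ⟨s, hs, hsu⟩ := hinv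
  obtain ⟨g, hg⟩ := h8
  obtain ⟨x, hx⟩ := h3
  have hord : ∀ h : H, orderOf h = 1 ∨ orderOf h = 2 ∨ orderOf h = 3 ∨ orderOf h = 4 ∨
      orderOf h = 6 ∨ orderOf h = 8 := fun h => by simpa using horder h
  -- the primes
  have hprimes : ∀ r : ℕ, r.Prime → r ∣ Nat.card H → r = 2 ∨ r = 3 := by
    intro r hr hd
    haveI := Fact.mk hr
    obtain ⟨y, hy⟩ := exists_prime_orderOf_dvd_card' r hd
    have := hord y
    rw [hy] at this
    rcases this with h | h | h | h | h | h
    · exact absurd h hr.one_lt.ne'
    · exact Or.inl h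
    · exact Or.inr h
    · subst h; exact absurd hr (by norm_num)
    · subst h; exact absurd hr (by norm_num)
    · subst h; exact absurd hr (by norm_num)
  -- a Sylow 2-subgroup containing `g`
  have hgp : IsPGroup 2 (zpowers g) := by
    rw [IsPGroup.iff_card]
    exact ⟨3, by rw [Nat.card_zpowers, hg]; norm_num⟩
  obtain ⟨P, hgP⟩ := hgp.exists_le_sylow
  have hP8 : 8 ∣ Nat.card P := by
    have h1 : (2 : ℕ) ^ 3 ∣ Nat.card H := by
      have := orderOf_dvd_natCard g
      rw [hg] at this
      simpa using this
    exact P.pow_dvd_card_of_pow_dvd_card h1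
  have hPcard : Nat.card P = 8 ∨ Nat.card P = 16 := by
    rcases hsyl 2 P with hcyc | ⟨n, ⟨e⟩⟩
    · obtain ⟨y, hy⟩ := hcyc.exists_generator
      have h1 : Nat.card P = orderOf y := by
        rw [← Nat.card_zpowers, (eq_top_iff.2 (fun z _ => hy z) : zpowers y = ⊤),
          Subgroup.card_top]
      have h2 := hord y
      rw [Subgroup.orderOf_coe, ← h1] at h2
      left
      rcases h2 with h | h | h | h | h | h <;> rw [h] at hP8 <;> first | omega | exact h
    · have h1 : Nat.card P = 4 * 2 ^ n := by
        rw [Nat.card_congr e.toEquiv, Nat.card_eq_fintype_card, QuaternionGroup.card]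
      have h2 := hord (e.symm (QuaternionGroup.a 1) : P)
      rw [Subgroup.orderOf_coe, MulEquiv.orderOf_eq, QuaternionGroup.orderOf_a_one] at h2
      rw [h1] at hP8 ⊢
      have h3 : 2 ^ n ≤ 4 := by omega
      have h4 : n ≤ 2 := by
        by_contra hn
        have : 2 ^ 3 ≤ 2 ^ n := Nat.pow_le_pow_right (by norm_num) (by omega)
        omega
      interval_cases n <;> omega
  -- a Sylow 3-subgroup
  obtain ⟨Q⟩ : Nonempty (Sylow 3 H) := inferInstance
  have hQcard : Nat.card Q = 3 := by
    have h3d : 3 ∣ Nat.card Q := by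
      have h1 : (3 : ℕ) ^ 1 ∣ Nat.card H := by
        have := orderOf_dvd_natCard x
        rw [hx] at this
        simpa using this
      simpa using Q.pow_dvd_card_of_pow_dvd_card h1
    obtain ⟨m, hm⟩ := IsPGroup.iff_card.1 Q.isPGroup'
    rcases hsyl 3 Q with hcyc | ⟨n, ⟨e⟩⟩
    · obtain ⟨y, hy⟩ := hcyc.exists_generator
      have h1 : Nat.card Q = orderOf y := by
        rw [← Nat.card_zpowers, (eq_top_iff.2 (fun z _ => hy z) : zpowers y = ⊤),
          Subgroup.card_top]
      have h2 := hord y
      rw [Subgroup.orderOf_coe, ← h1] at h2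
      rcases h2 with h | h | h | h | h | h
      · rw [h] at h3d; omega
      · rw [h] at h3d; omega
      · exact h
      · rw [h] at h3d; omega
      · -- 6 is not a power of 3
        exfalso
        have : 2 ∣ 3 ^ m := by rw [← hm, h]; norm_num
        have := Nat.prime_two.dvd_of_dvd_pow this
        omega
      · rw [h] at h3d; omega
    · exfalso
      have h1 : Nat.card Q = 4 * 2 ^ n := by
        rw [Nat.card_congr e.toEquiv, Nat.card_eq_fintype_card, QuaternionGroup.card]
      have : 2 ∣ 3 ^ m := by rw [← hm, h1]; omega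
      have := Nat.prime_two.dvd_of_dvd_pow this
      omega
  -- the order
  have hcard : Nat.card H = Nat.card P * 3 := by
    have hcop : Nat.Coprime (Nat.card P) 3 := by
      rcases hPcard with h | h <;> rw [h] <;> norm_num
    have hdvd : Nat.card P * 3 ∣ Nat.card H :=
      hcop.mul_dvd_of_dvd_of_dvd P.1.card_subgroup_dvd_card (hQcard ▸ Q.1.card_subgroup_dvd_card)
    obtain ⟨k, hk⟩ := hdvd
    by_contra hne
    have hk1 : k ≠ 1 := by
      rintro rfl
      exact hne (by rw [hk, mul_one])
    obtain ⟨r, hr, hrk⟩ := Nat.exists_prime_and_dvd hk1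
    have hPi : (P : Subgroup H).index = 3 * k := by
      have h1 := (P : Subgroup H).card_mul_index
      rw [hk, mul_assoc] at h1
      exact Nat.eq_of_mul_eq_mul_left Nat.card_pos h1
    have hQi : (Q : Subgroup H).index = Nat.card P * k := by
      have h1 := (Q : Subgroup H).card_mul_index
      have h2 : Nat.card (Q : Subgroup H) = 3 := hQcard
      rw [h2, hk] at h1
      have : 3 * (Q : Subgroup H).index = 3 * (Nat.card P * k) := by rw [h1]; ring
      exact Nat.eq_of_mul_eq_mul_left (by norm_num) this
    rcases hprimes r hr (hk ▸ (hrk.mul_left _)) with rfl | rfl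
    · exact P.not_dvd_index (hPi ▸ hrk.mul_left _)
    · exact Q.not_dvd_index (hQi ▸ hrk.mul_left _)
  -- the order is 48
  have h48 : Nat.card H = 48 := by
    rcases hPcard with h | h
    · exfalso
      rw [h] at hcard
      have hPg : (P : Subgroup H) = zpowers g := by
        symm
        apply Subgroup.eq_of_le_of_card_ge hgP
        rw [Nat.card_zpowers, hg]
        exact h.le
      have hcyc : IsCyclic P := by
        have : IsCyclic (zpowers g) := inferInstance
        rw [← hPg] at this
        exact this
      have hmin : (Nat.card H).minFac = 2 := by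
        rw [hcard]
        norm_num
      have hcompl := IsCyclic.isComplement' hmin hcyc
      set Q' := (MonoidHom.transferSylow P (hcyc.normalizer_le_centralizer hmin)).ker with hQ'
      have hQ'c : Nat.card Q' = 3 := by
        have := hcompl.card_mul_card
        have h2 : Nat.card (P : Subgroup H) = 8 := h
        rw [h2, hcard] at this
        omega
      obtain ⟨y, hy⟩ := exists_prime_orderOf_dvd_card' (G := Q') 3 (by rw [hQ'c])
      have hyt : zpowers y = ⊤ := by
        apply Subgroup.eq_top_of_card_eq
        rw [Nat.card_zpowers, hy, hQ'c]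
      have hyo : orderOf (y : H) = 3 := by rw [Subgroup.orderOf_coe, hy]
      have hconj : ∃ n : ℤ, g * y * g⁻¹ = (y : H) ^ n := by
        have hmem : g * y * g⁻¹ ∈ Q' := (inferInstance : Q'.Normal).conj_mem _ y.2 g
        have : (⟨_, hmem⟩ : Q') ∈ zpowers y := by rw [hyt]; trivial
        obtain ⟨n, hn⟩ := mem_zpowers_iff.1 this
        exact ⟨n, by simpa using (congrArg Subtype.val hn).symm⟩
      obtain ⟨n, hn⟩ := hconj
      have hn2 : g ^ 2 * y * (g ^ 2)⁻¹ = (y : H) ^ (n * n) := by
        calc g ^ 2 * y * (g ^ 2)⁻¹ = g * (g * y * g⁻¹) * g⁻¹ := by rw [pow_two]; group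
          _ = g * (y : H) ^ n * g⁻¹ := by rw [hn]
          _ = (g * y * g⁻¹) ^ n := by rw [conj_zpow]
          _ = _ := by rw [hn, ← zpow_mul]
      have h31 : (3 : ℤ) ∣ n * n - 1 := by
        have h3n : ¬ (3 : ℤ) ∣ n := by
          rintro ⟨k, rfl⟩
          rw [zpow_mul] at hn
          have : (y : H) ^ (3 : ℤ) = 1 := by
            have := pow_orderOf_eq_one (y : H)
            rw [hyo] at this
            exact_mod_cast this
          rw [this, one_zpow, mul_inv_eq_one] at hn
          have : (y : H) = 1 := by simpa using hn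
          rw [this, orderOf_one] at hyo
          omega
        have : n % 3 = 1 ∨ n % 3 = 2 := by omega
        rcases this with h | h
        · obtain ⟨k, hk⟩ : ∃ k, n = 3 * k + 1 := ⟨n / 3, by omega⟩
          exact ⟨3 * k * k + 2 * k, by rw [hk]; ring⟩
        · obtain ⟨k, hk⟩ : ∃ k, n = 3 * k + 2 := ⟨n / 3, by omega⟩
          exact ⟨3 * k * k + 4 * k + 1, by rw [hk]; ring⟩
      have hyy : (y : H) ^ (n * n) = y := by
        obtain ⟨k, hk⟩ := h31
        have : n * n = 3 * k + 1 := by omega
        rw [this, zpow_add, zpow_mul, zpow_one]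
        have : (y : H) ^ (3 : ℤ) = 1 := by
          have := pow_orderOf_eq_one (y : H)
          rw [hyo] at this
          exact_mod_cast this
        rw [this, one_zpow, one_mul]
      have hcomm : Commute (g ^ 2) (y : H) := by
        have := hn2.trans hyy
        rw [mul_inv_eq_iff_eq_mul] at this
        exact this
      have ho2 : orderOf (g ^ 2) = 4 := by
        rw [orderOf_pow, hg]
        norm_num
      have h12 := hcomm.orderOf_mul_eq_mul_orderOf_of_coprime (by rw [ho2, hyo]; norm_num)
      rw [ho2, hyo] at h12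
      have := hord (g ^ 2 * y)
      rw [h12] at this
      omega
    · rw [hcard, h]
  -- the centre
  have hZn : (zpowers s).Normal := by
    constructor
    intro n hn h
    obtain ⟨k, rfl⟩ := mem_zpowers_iff.1 hn
    rw [← conj_zpow]
    have : h * s * h⁻¹ = s := by
      apply hsu
      rw [← hs]
      have := orderOf_injective (MulAut.conj h).toMonoidHom (MulAut.conj h).injective s
      simpa using this
    rw [this]
    exact zpow_mem (mem_zpowers s) k
  have hZc : Nat.card (zpowers s) = 2 := by rw [Nat.card_zpowers, hs]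
  refine ⟨zpowers s, hZn, hZc, ?_, ?_⟩
  · intro Z' hZ'
    obtain ⟨z, hz⟩ := exists_prime_orderOf_dvd_card' (G := Z') 2 (by rw [hZ'])
    have hzs : (z : H) = s := hsu _ (by rw [Subgroup.orderOf_coe, hz])
    symm
    apply Subgroup.eq_of_le_of_card_ge
    · rw [← hzs]
      exact (zpowers_le).2 z.2
    · rw [hZ', hZc]
  · apply Cfsg.Agent.S1012.result
    · have h1 := (zpowers s).card_mul_index
      rw [hZc, h48] at h1
      rw [← Subgroup.index_eq_card]
      omega
    · intro q hq
      obtain ⟨h, rfl⟩ := QuotientGroup.mk_surjective q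
      have hd : 6 ∣ orderOf h := by
        rw [← hq]
        exact orderOf_map_dvd (QuotientGroup.mk' (zpowers s)) h
      have ho : orderOf h = 6 := by
        have := hord h
        omega
      have h3s : h ^ 3 = s := by
        apply hsu
        rw [orderOf_pow, ho]
        norm_num
      have : (QuotientGroup.mk h : H ⧸ zpowers s) ^ 3 = 1 := by
        rw [← QuotientGroup.mk_pow, h3s, QuotientGroup.eq_one_iff]
        exact mem_zpowers s
      have := orderOf_dvd_of_pow_eq_one this
      rw [hq] at this
      omega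

end Cfsg.Agent.H406.OctStruct
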