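import Cfsg.Agent.H406.SolvFrob
import Cfsg.Agent.H406.OctStruct
import Cfsg.Agent.H406.OctOrder
import Cfsg.Agent.S0003
import Cfsg.Agent.S0004
import Cfsg.Agent.S0005
import Cfsg.Agent.S0043
import Cfsg.Agent.S0068

/-!
# Solvable groups critical with respect to the element orders of `PSL₃(3)`
-/

set_option autoImplicit false
set_option linter.unusedSectionVars false
set_option linter.style.haveILetI false

namespace Cfsg.Agent.H406.CritThirteen

open Subgroup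

theorem ord_of_range {G : Type*} [Group G]
    (hspec : Set.range (orderOf : G → ℕ) = ({1, 2, 3, 4, 6, 8, 13} : Set ℕ)) :
    SolvThirteen.Ord G := by
  intro g
  have : orderOf g ∈ Set.range (orderOf : G → ℕ) := ⟨g, rfl⟩
  rw [hspec] at this
  simpa using this

theorem exists_of_range {G : Type*} [Group G]
    (hspec : Set.range (orderOf : G → ℕ) = ({1, 2, 3, 4, 6, 8, 13} : Set ℕ)) {n : ℕ}
    (hn : n ∈ ({1, 2, 3, 4, 6, 8, 13} : Set ℕ)) : ∃ g : G, orderOf g = n := by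
  rw [← hspec] at hn
  exact hn

theorem solvable_case {G : Type*} [Group G] [Finite G] [Group.IsSolvable G]
    (hspec : Set.range (orderOf : G → ℕ) = ({1, 2, 3, 4, 6, 8, 13} : Set ℕ))
    (hcrit : ∀ H : Subgroup G, H ≠ ⊤ →
      Set.range (orderOf : H → ℕ) ≠ ({1, 2, 3, 4, 6, 8, 13} : Set ℕ)) :
    ∃ (K H : Subgroup G), K.Normal ∧ IsMulCommutative K ∧ (∀ x ∈ K, x ^ 13 = 1) ∧
        Nat.card K = 13 ^ 4 ∧
        K ⊓ H = ⊥ ∧ K ⊔ H = ⊤ ∧ (∀ h ∈ H, h ≠ 1 → ∀ x ∈ K, h * x * h⁻¹ = x → x = 1) ∧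
        ∃ (Z : Subgroup ↥H) (_ : Z.Normal), Nat.card Z = 2 ∧
          (∀ Z' : Subgroup ↥H, Nat.card Z' = 2 → Z' = Z) ∧
          Nonempty (↥H ⧸ Z ≃* Equiv.Perm (Fin 4)) := by
  classical
  haveI : Fact (Nat.Prime 13) := ⟨by norm_num⟩
  have hOrd := ord_of_range hspec
  obtain ⟨x13, hx13⟩ := exists_of_range hspec (n := 13) (by simp)
  obtain ⟨x8, hx8⟩ := exists_of_range hspec (n := 8) (by simp)
  obtain ⟨x3, hx3⟩ := exists_of_range hspec (n := 3) (by simp)
  have h13 : 13 ∣ Nat.card G := by rw [← hx13]; exact orderOf_dvd_natCard x13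
  have h3 : 3 ∣ Nat.card G := by rw [← hx3]; exact orderOf_dvd_natCard x3
  -- a nontrivial normal 13-subgroup
  obtain ⟨N, hN, hNp, hN1⟩ : ∃ N : Subgroup G, N.Normal ∧ IsPGroup 13 N ∧ N ≠ ⊥ := by
    by_contra hcon
    push Not at hcon
    exact SolvFrob.false_of_no_normal hOrd h13 h3 ⟨x8, hx8⟩ hcon
  -- a minimal normal subgroup in it
  obtain ⟨K, ⟨hKn, hK1, hKN⟩, hKmin⟩ : ∃ K : Subgroup G, (K.Normal ∧ K ≠ ⊥ ∧ K ≤ N) ∧
      ∀ M : Subgroup G, (M.Normal ∧ M ≠ ⊥ ∧ M ≤ N) → Nat.card K ≤ Nat.card M := by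
    haveI : Fintype (Subgroup G) := Fintype.ofFinite _
    have hne : (Finset.univ.filter (fun M : Subgroup G => M.Normal ∧ M ≠ ⊥ ∧ M ≤ N)).Nonempty :=
      ⟨N, Finset.mem_filter.2 ⟨Finset.mem_univ _, hN, hN1, le_rfl⟩⟩
    obtain ⟨M, hM, hmax⟩ := Finset.exists_min_image _ (fun M : Subgroup G => Nat.card M) hne
    rw [Finset.mem_filter] at hM
    exact ⟨M, hM.2, fun M' hM' => hmax M' (Finset.mem_filter.2 ⟨Finset.mem_univ _, hM'⟩)⟩
  haveI := hKn
  have hmin : ∀ M : Subgroup G, M.Normal → M ≤ K → M = ⊥ ∨ M = K := by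
    intro M hM hMK
    by_cases h : M = ⊥
    · exact Or.inl h
    · exact Or.inr (Subgroup.eq_of_le_of_card_ge hMK (hKmin M ⟨hM, h, hMK.trans hKN⟩))
  obtain ⟨hKc, p, hp, hKp⟩ := Cfsg.Agent.S0043.result K hK1 hmin
  have hKP : IsPGroup 13 K := hNp.to_le hKN
  haveI := Fact.mk hp
  have hp13 : p = 13 := by
    obtain ⟨y, hy, hy1⟩ : ∃ y ∈ K, y ≠ 1 := by
      by_contra hcon
      push Not at hcon
      exact hK1 ((Subgroup.eq_bot_iff_forall K).2 hcon)
    have h1 : orderOf y = p := orderOf_eq_prime (hKp y hy) hy1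
    obtain ⟨k, hk⟩ := hKP ⟨y, hy⟩
    have hk' : y ^ 13 ^ k = 1 := by simpa [Subtype.ext_iff] using hk
    have h2 := orderOf_dvd_of_pow_eq_one hk'
    rw [h1] at h2
    exact (Nat.prime_dvd_prime_iff_eq hp (by norm_num)).1 (hp.dvd_of_dvd_pow h2)
  subst hp13
  -- the Hall subgroup
  obtain ⟨a, m, hm13, hcard⟩ := Nat.exists_eq_pow_mul_and_not_dvd (Nat.card_pos (α := G)).ne' 13
    (by norm_num)
  have hcard' : Nat.card G = m * 13 ^ a := by rw [hcard, mul_comm]
  have hcop : m.Coprime (13 ^ a) :=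
    Nat.Coprime.pow_right a ((Nat.Prime.coprime_iff_not_dvd (by norm_num)).2 hm13).symm
  obtain ⟨H, hH⟩ := Cfsg.Agent.S0003.result m (13 ^ a) hcard' hcop
  have hHord : ∀ n : ℕ, Nat.Coprime n 13 → (∃ g : G, orderOf g = n) → ∃ g ∈ H, orderOf g = n := by
    rintro n hn ⟨g, hg⟩
    obtain ⟨H', hH', hgH'⟩ := Cfsg.Agent.S0005.result m (13 ^ a) hcard' hcop (zpowers g) (by
      rw [Nat.card_zpowers, hg]; exact Nat.Coprime.pow_right a hn)
    obtain ⟨t, ht⟩ := Cfsg.Agent.S0004.result m (13 ^ a) hcard' hcop H' H hH' hH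
    refine ⟨t * g * t⁻¹, ?_, ?_⟩
    · rw [← ht, ← MulAut.conj_apply]
      exact Subgroup.smul_mem_pointwise_smul g (MulAut.conj t) H' (hgH' (mem_zpowers g))
    · rw [← MulAut.conj_apply, MulEquiv.orderOf_eq, hg]
  have hHn : ∀ h ∈ H, ¬ 13 ∣ orderOf h := by
    intro h hh h13'
    apply hm13
    rw [← hH]
    refine h13'.trans ?_
    have := orderOf_dvd_natCard (⟨h, hh⟩ : H)
    rwa [Subgroup.orderOf_mk] at this
  -- `G = K H`
  have hKH : K ⊔ H = ⊤ := by
    by_contra hne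
    apply hcrit _ hne
    apply Set.Subset.antisymm
    · rintro n ⟨g, rfl⟩
      rw [← hspec]
      exact ⟨(g : G), by rw [Subgroup.orderOf_coe]⟩
    · intro n hn
      obtain ⟨g, hg⟩ := exists_of_range hspec hn
      by_cases hn13 : n = 13
      · subst hn13
        obtain ⟨y, hy, hy1⟩ : ∃ y ∈ K, y ≠ 1 := by
          by_contra hcon
          push Not at hcon
          exact hK1 ((Subgroup.eq_bot_iff_forall K).2 hcon)
        refine ⟨⟨y, le_sup_left (α := Subgroup G) hy⟩, ?_⟩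
        rw [Subgroup.orderOf_mk]
        exact orderOf_eq_prime (hKp y hy) hy1
      · have hcn : Nat.Coprime n 13 := by
          simp only [Set.mem_insert_iff, Set.mem_singleton_iff] at hn
          rcases hn with h | h | h | h | h | h | h
          · subst h; norm_num
          · subst h; norm_num
          · subst h; norm_num
          · subst h; norm_num
          · subst h; norm_num
          · subst h; norm_num
          · exact absurd h hn13
        obtain ⟨h, hh, ho⟩ := hHord n hcn ⟨g, hg⟩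
        exact ⟨⟨h, le_sup_right (α := Subgroup G) hh⟩, by rw [Subgroup.orderOf_mk, ho]⟩
  have hinf : K ⊓ H = ⊥ := by
    rw [eq_bot_iff]
    rintro y ⟨hyK, hyH⟩
    rw [mem_bot]
    by_contra hy1
    exact hHn y hyH (by rw [orderOf_eq_prime (hKp y hyK) hy1])
  have hfpf : ∀ h ∈ H, h ≠ 1 → ∀ x ∈ K, h * x * h⁻¹ = x → x = 1 := by
    intro h hh h1 x hx hhx
    by_contra hx1
    have hxo : orderOf x = 13 := orderOf_eq_prime (hKp x hx) hx1
    rw [mul_inv_eq_iff_eq_mul] at hhx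
    rcases hOrd.commute hxo (show Commute h x from hhx) with h2 | h2
    · exact h1 (orderOf_eq_one_iff.1 h2)
    · exact hHn h hh (by rw [h2])
  have hfpf' : ∀ h ∈ H, h ≠ 1 → K ⊓ Subgroup.centralizer {h} = ⊥ := by
    intro h hh h1
    rw [eq_bot_iff]
    rintro x ⟨hx, hxc⟩
    rw [mem_bot]
    apply hfpf h hh h1 x hx
    rw [mul_inv_eq_iff_eq_mul]
    exact (Subgroup.mem_centralizer_iff.1 hxc) h rfl
  have hc : Subgroup.IsComplement' K H := by
    apply Subgroup.isComplement'_of_disjoint_and_mul_eq_univ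
    · rw [disjoint_iff]; exact hinf
    · rw [← Subgroup.normal_mul K H, hKH]; rfl
  obtain ⟨y8, hy8, hy8o⟩ := hHord 8 (by norm_num) ⟨x8, hx8⟩
  obtain ⟨y3, hy3, hy3o⟩ := hHord 3 (by norm_num) ⟨x3, hx3⟩
  have heven : 2 ∣ Nat.card H := by
    have := orderOf_dvd_natCard (⟨y8, hy8⟩ : H)
    rw [Subgroup.orderOf_mk, hy8o] at this
    exact (by norm_num : 2 ∣ 8).trans this
  obtain ⟨⟨s, hsH, hs2, hsu, hsinv⟩, -⟩ := Cfsg.Agent.S0068.result K H hc hK1 hfpf' heven
  obtain ⟨Z, hZn, hZ2, hZu, ⟨e⟩⟩ := OctStruct.exists_center (H := H)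
    (by
      intro h
      have h1 := hOrd h
      have h2 := hHn h h.2
      rw [Subgroup.orderOf_coe] at h1 h2
      rcases h1 with h | h | h | h | h | h | h
      · simp [h]
      · simp [h]
      · simp [h]
      · simp [h]
      · simp [h]
      · simp [h]
      · rw [h] at h2
        exact absurd (dvd_refl 13) h2)
    ⟨⟨s, hsH⟩, by rw [Subgroup.orderOf_mk, hs2], fun t ht => Subtype.ext
      (hsu t t.2 (by rw [Subgroup.orderOf_coe, ht]))⟩
    (fun p _ P => Cfsg.Agent.S0040.result K H hc hK1 hfpf' p P)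
    ⟨⟨y8, hy8⟩, by rw [Subgroup.orderOf_mk, hy8o]⟩
    ⟨⟨y3, hy3⟩, by rw [Subgroup.orderOf_mk, hy3o]⟩
  haveI := hZn
  refine ⟨K, H, hKn, hKc, hKp, ?_, hinf, hKH, hfpf, Z, hZn, hZ2, hZu, ⟨e⟩⟩
  exact OctOrder.card_kernel K H hKH hKc hKp hK1 hmin hfpf s hsH hs2 hsu hsinv Z hZ2 e

end Cfsg.Agent.H406.CritThirteen
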