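import Cfsg.Agent.H406.SolvThirteen
import Cfsg.Agent.S0144
import Cfsg.Agent.H367.SpecL33
import Cfsg.Agent.SmallSimple.S1000.PSLFacts
import Cfsg.Agent.H93.ThreeNine

/-!
# Nonsolvable groups critical with respect to the element orders of `PSL₃(3)`
-/

set_option autoImplicit false
set_option linter.unusedSectionVars false
set_option linter.style.haveILetI false

namespace Cfsg.Agent.H406.SecThirteen

open Subgroup

universe u

/-- a nonsolvable finite group has a nonabelian simple section -/
theorem exists_section {G : Type u} [Group G] [Finite G] (hG : ¬ Group.IsSolvable G) :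
    ∃ (H : Subgroup G) (N : Subgroup H) (_ : N.Normal), IsSimpleGroup (H ⧸ N) ∧
      ¬ Group.IsSolvable (H ⧸ N) := by
  classical
  haveI : Fintype (Subgroup G) := Fintype.ofFinite _
  obtain ⟨H, hH, hHmin⟩ : ∃ H : Subgroup G, ¬ Group.IsSolvable H ∧
      ∀ M : Subgroup G, ¬ Group.IsSolvable M → Nat.card H ≤ Nat.card M := by
    have hne : (Finset.univ.filter (fun M : Subgroup G => ¬ Group.IsSolvable M)).Nonempty := by
      refine ⟨⊤, Finset.mem_filter.2 ⟨Finset.mem_univ _, fun h => hG ?_⟩⟩
      haveI := h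
      exact Group.isSolvable_of_surjective (f := (Subgroup.topEquiv (G := G)).toMonoidHom)
        (Subgroup.topEquiv (G := G)).surjective
    obtain ⟨M, hM, hmax⟩ := Finset.exists_min_image _ (fun M : Subgroup G => Nat.card M) hne
    rw [Finset.mem_filter] at hM
    exact ⟨M, hM.2, fun M' hM' => hmax M' (Finset.mem_filter.2 ⟨Finset.mem_univ _, hM'⟩)⟩
  haveI : Fintype (Subgroup H) := Fintype.ofFinite _
  haveI hHnt : Nontrivial H := by
    by_contra hn
    rw [not_nontrivial_iff_subsingleton] at hn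
    exact hH inferInstance
  obtain ⟨N, ⟨hN, hN1⟩, hNmax⟩ : ∃ N : Subgroup H, (N.Normal ∧ N ≠ ⊤) ∧
      ∀ M : Subgroup H, (M.Normal ∧ M ≠ ⊤) → Nat.card M ≤ Nat.card N := by
    have hne : (Finset.univ.filter (fun M : Subgroup H => M.Normal ∧ M ≠ ⊤)).Nonempty :=
      ⟨⊥, Finset.mem_filter.2 ⟨Finset.mem_univ _, inferInstance, bot_ne_top⟩⟩
    obtain ⟨M, hM, hmax⟩ := Finset.exists_max_image _ (fun M : Subgroup H => Nat.card M) hne
    rw [Finset.mem_filter] at hM
    exact ⟨M, hM.2, fun M' hM' => hmax M' (Finset.mem_filter.2 ⟨Finset.mem_univ _, hM'⟩)⟩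
  haveI := hN
  haveI : Nontrivial (H ⧸ N) := by
    by_contra hn
    rw [not_nontrivial_iff_subsingleton] at hn
    apply hN1
    rw [eq_top_iff]
    intro x _
    rw [← QuotientGroup.eq_one_iff]
    exact hn.elim _ _
  refine ⟨H, N, hN, ⟨?_⟩, ?_⟩
  · intro K hK
    by_cases hKt : K.comap (QuotientGroup.mk' N) = ⊤
    · right
      rw [eq_top_iff]
      intro x _
      obtain ⟨y, rfl⟩ := QuotientGroup.mk'_surjective N x
      have : y ∈ K.comap (QuotientGroup.mk' N) := by rw [hKt]; exact mem_top y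
      exact this
    · left
      have hle : N ≤ K.comap (QuotientGroup.mk' N) := by
        intro x hx
        rw [Subgroup.mem_comap]
        have : QuotientGroup.mk' N x = 1 := by
          rw [QuotientGroup.mk'_apply, QuotientGroup.eq_one_iff]; exact hx
        rw [this]; exact K.one_mem
      have heq := Subgroup.eq_of_le_of_card_ge hle (hNmax _ ⟨hK.comap _, hKt⟩)
      rw [eq_bot_iff]
      intro x hx
      obtain ⟨y, rfl⟩ := QuotientGroup.mk'_surjective N x
      have : y ∈ K.comap (QuotientGroup.mk' N) := hx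
      rw [← heq] at this
      rw [mem_bot, QuotientGroup.mk'_apply, QuotientGroup.eq_one_iff]
      exact this
  · intro hsolv
    haveI := hsolv
    apply hH
    have hNs : Group.IsSolvable N := by
      by_contra hns
      have h1 : Nat.card (N.map H.subtype) = Nat.card N :=
        (Nat.card_congr (N.equivMapOfInjective H.subtype H.subtype_injective).toEquiv).symm
      have h2 := hHmin (N.map H.subtype) (fun h => hns (by
        haveI := h
        exact Group.isSolvable_of_isSolvable_injective (f := (N.equivMapOfInjective H.subtype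
          H.subtype_injective).toMonoidHom) (N.equivMapOfInjective H.subtype
          H.subtype_injective).injective))
      rw [h1] at h2
      exact hN1 (Subgroup.eq_top_of_card_eq N (le_antisymm (Subgroup.card_le_card_group N) h2))
    haveI := hNs
    exact Group.isSolvable_of_ker_le_range N.subtype (QuotientGroup.mk' N) (by
      rw [QuotientGroup.ker_mk', Subgroup.range_subtype])

/-- The primes of the section. -/
theorem primeFactors_eq {S : Type*} [Group S] [Finite S] (hS : ¬ Group.IsSolvable S)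
    (hp : ∀ r : ℕ, r.Prime → r ∣ Nat.card S → r = 2 ∨ r = 3 ∨ r = 13) :
    (Nat.card S).primeFactors = {2, 3, 13} := by
  have h0 : Nat.card S ≠ 0 := Nat.card_pos.ne'
  have hsub : (Nat.card S).primeFactors ⊆ {2, 3, 13} := by
    intro r hr
    rw [Nat.mem_primeFactors] at hr
    simpa using hp r hr.1 hr.2.1
  have hprod : Nat.card S = 2 ^ (Nat.card S).factorization 2 * 3 ^ (Nat.card S).factorization 3 *
      13 ^ (Nat.card S).factorization 13 := by
    conv_lhs => rw [← Nat.prod_factorization_pow_eq_self h0]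
    rw [Finsupp.prod_of_support_subset (s := {2, 3, 13}) _ (by
      rw [Nat.support_factorization]; exact hsub) _ (fun _ _ => pow_zero _)]
    simp
    ring
  have hz : ∀ r : ℕ, r ∉ (Nat.card S).primeFactors → (Nat.card S).factorization r = 0 := by
    intro r hr
    rw [← Nat.support_factorization, Finsupp.notMem_support_iff] at hr
    exact hr
  apply Finset.Subset.antisymm hsub
  intro r hr
  simp only [Finset.mem_insert, Finset.mem_singleton] at hr
  by_contra hcon
  have hrz := hz r hcon
  apply hS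
  rcases hr with rfl | rfl | rfl
  · rw [hrz, pow_zero, one_mul] at hprod
    exact Cfsg.Agent.S0144.result 3 13 _ _ (by norm_num) (by norm_num) hprod
  · rw [hrz, pow_zero, mul_one] at hprod
    exact Cfsg.Agent.S0144.result 2 13 _ _ (by norm_num) (by norm_num) hprod
  · rw [hrz, pow_zero, mul_one] at hprod
    exact Cfsg.Agent.S0144.result 2 3 _ _ (by norm_num) (by norm_num) hprod

theorem of_list {S : Type*} [Group S] [Finite S] (h13 : 13 ∣ Nat.card S)
    (hl : Cfsg.Agent.H93.ThreeNine.List3 S) :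
    ∃ (F : Type) (_ : Field F) (_ : Fintype F), Fintype.card F = 3 ∧
      Nonempty (S ≃* Matrix.ProjectiveSpecialLinearGroup (Fin 3) F) := by
  rcases hl with ⟨⟨e⟩⟩ | ⟨⟨e⟩⟩ | ⟨F, _, _, hF, ⟨e⟩⟩ | h | ⟨F, _, _, hF, ⟨e⟩⟩ |
    ⟨F, _, _, hF, ⟨e⟩⟩
  · exfalso
    rw [Nat.card_congr e.toEquiv, nat_card_alternatingGroup] at h13
    norm_num [Nat.factorial] at h13
  · exfalso
    rw [Nat.card_congr e.toEquiv, nat_card_alternatingGroup] at h13
    norm_num [Nat.factorial] at h13
  · exfalso
    rcases hF with hF | hF | hF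
    · rw [Nat.card_congr e.toEquiv, Cfsg.Agent.SmallSimple.PSLFacts.card_psl_two_seven hF] at h13
      norm_num at h13
    · rw [Nat.card_congr e.toEquiv, Cfsg.Agent.SmallSimple.PSLFacts.card_psl_two_eight hF] at h13
      norm_num at h13
    · rw [Nat.card_congr e.toEquiv, Cfsg.Agent.SmallSimple.PSLFacts.card_psl_two_seventeen hF] at h13
      norm_num at h13
  · exact h
  · exfalso
    rw [Nat.card_congr e.toEquiv, Cfsg.Agent.H93.ThreeNine.card_psu_three_three hF] at h13
    norm_num at h13
  · exfalso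
    rw [Nat.card_congr e.toEquiv, Cfsg.Agent.H93.ThreeNine.card_psu_four_two hF] at h13
    norm_num at h13

theorem center_eq_bot {F : Type*} [Field F] [Fintype F] (h3 : Fintype.card F = 3) :
    Subgroup.center (Matrix.SpecialLinearGroup (Fin 3) F) = ⊥ := by
  rw [eq_bot_iff]
  intro A hA
  rw [Matrix.SpecialLinearGroup.mem_center_iff] at hA
  obtain ⟨r, hr, hrA⟩ := hA
  rw [Fintype.card_fin] at hr
  have h1 : r ^ 3 = r := by
    rw [← h3]; exact FiniteField.pow_card r
  rw [h1] at hr
  rw [mem_bot]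
  apply Subtype.ext
  rw [← hrA, hr, map_one]
  rfl

theorem exists_equiv {F : Type*} [Field F] [Fintype F] (h3 : Fintype.card F = 3) :
    Nonempty (Matrix.SpecialLinearGroup (Fin 3) F ≃* Matrix.ProjectiveSpecialLinearGroup (Fin 3) F) := by
  let f : Matrix.SpecialLinearGroup (Fin 3) F →* Matrix.ProjectiveSpecialLinearGroup (Fin 3) F :=
    QuotientGroup.mk' _
  have hf : Function.Bijective f := by
    refine ⟨?_, QuotientGroup.mk'_surjective _⟩
    rw [← MonoidHom.ker_eq_bot_iff, QuotientGroup.ker_mk', center_eq_bot h3]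
  exact ⟨MulEquiv.ofBijective f hf⟩

/-- The nonsolvable case. -/
theorem nonsolvable_case {G : Type*} [Group G] [Finite G] (hns : ¬ Group.IsSolvable G)
    (hcrit : Set.range (orderOf : G → ℕ) = ({1, 2, 3, 4, 6, 8, 13} : Set ℕ) ∧
      ∀ (H : Subgroup G) (N : Subgroup ↥H) [N.Normal], (H ≠ ⊤ ∨ N ≠ ⊥) → Set.range (orderOf : (↥H ⧸ N) → ℕ) ≠ ({1, 2, 3, 4, 6, 8, 13} : Set ℕ))
    (h3719 : ∀ (H : Subgroup G) (N : Subgroup ↥H) [N.Normal], IsSimpleGroup (H ⧸ N) →
      ¬ IsMulCommutative (H ⧸ N) → (Nat.card (H ⧸ N)).primeFactors.card = 3 →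
      Cfsg.Agent.H93.ThreeNine.List3 (H ⧸ N)) :
    ∃ (F : Type) (_ : Field F) (_ : Fintype F), Fintype.card F = 3 ∧
      Nonempty (G ≃* Matrix.SpecialLinearGroup (Fin 3) F) := by
  obtain ⟨H, N, hN, hsimple, hnsS⟩ := exists_section hns
  haveI := hN
  have hprimes : ∀ r : ℕ, r.Prime → r ∣ Nat.card (H ⧸ N) → r = 2 ∨ r = 3 ∨ r = 13 := by
    intro r hr hrd
    have h1 : r ∣ Nat.card G := by
      refine (hrd.trans ?_).trans (Subgroup.card_subgroup_dvd_card H)
      rw [Subgroup.card_eq_card_quotient_mul_card_subgroup N]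
      exact Dvd.intro _ rfl
    have hOrd : SolvThirteen.Ord G := by
      intro g
      have : orderOf g ∈ Set.range (orderOf : G → ℕ) := ⟨g, rfl⟩
      rw [hcrit.1] at this
      simpa using this
    exact hOrd.prime hr h1
  have hpf := primeFactors_eq hnsS hprimes
  have h13 : 13 ∣ Nat.card (H ⧸ N) := by
    apply Nat.dvd_of_mem_primeFactors
    rw [hpf]; simp
  have hnc : ¬ IsMulCommutative (H ⧸ N) := by
    intro h
    apply hnsS
    exact IsSimpleGroup.comm_iff_isSolvable.1 h.1.1
  obtain ⟨F, iF, iF', hF, ⟨e⟩⟩ := of_list h13 (h3719 H N hsimple hnc (by rw [hpf]; rfl))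
  have hspec : Set.range (orderOf : (↥H ⧸ N) → ℕ) = ({1, 2, 3, 4, 6, 8, 13} : Set ℕ) := by
    rw [← Cfsg.Agent.H367.SpecL33.range_orderOf hF]
    ext n
    constructor
    · rintro ⟨x, rfl⟩
      exact ⟨e x, MulEquiv.orderOf_eq e x⟩
    · rintro ⟨x, rfl⟩
      exact ⟨e.symm x, MulEquiv.orderOf_eq e.symm x⟩
  have hHN : H = ⊤ ∧ N = ⊥ := by
    by_contra hcon
    apply hcrit.2 H N ?_ hspec
    by_contra hcon'
    push Not at hcon'
    exact hcon hcon'
  obtain ⟨rfl, rfl⟩ := hHN
  obtain ⟨e'⟩ := exists_equiv hF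
  refine ⟨F, iF, iF', hF, ⟨?_⟩⟩
  exact ((Subgroup.topEquiv (G := G)).symm.trans (QuotientGroup.quotientBot (G := (⊤ : Subgroup G))).symm).trans
    (e.trans e'.symm)

end Cfsg.Agent.H406.SecThirteen
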