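import Cfsg.Agent.H406.SolvThirteen
import Cfsg.Agent.Lib.NilpotentCoprime

/-!
# Solvable groups with the element orders of `PSL₃(3)`, without normal 13-subgroups
-/

set_option autoImplicit false
set_option linter.unusedSectionVars false
set_option linter.style.haveILetI false

namespace Cfsg.Agent.H406.SolvFrob

open Subgroup SolvThirteen

attribute [local instance] SolvThirteen.instFact13

section

variable {G : Type*} [Group G] [Finite G]

theorem inf_eq_bot {M S : Subgroup G} (hM13 : ¬ 13 ∣ Nat.card M) (hS : IsPGroup 13 S) :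
    M ⊓ S = ⊥ := by
  rw [eq_bot_iff]
  rintro x ⟨hx, hx'⟩
  obtain ⟨k, hk⟩ := hS ⟨x, hx'⟩
  have hk' : x ^ 13 ^ k = 1 := by simpa [Subtype.ext_iff] using hk
  have h1 : orderOf x ∣ 13 ^ k := orderOf_dvd_of_pow_eq_one hk'
  have h2 : orderOf x ∣ Nat.card M := by
    have := orderOf_dvd_natCard (⟨x, hx⟩ : M)
    rwa [Subgroup.orderOf_mk] at this
  have h3 : Nat.Coprime (13 ^ k) (Nat.card M) :=
    Nat.Coprime.pow_left k ((Nat.Prime.coprime_iff_not_dvd (by norm_num)).2 hM13)
  have := Nat.dvd_gcd h1 h2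
  rw [h3] at this
  rw [mem_bot]
  exact orderOf_eq_one_iff.1 (Nat.dvd_one.1 this)

theorem isPGroup_of_pow {S : Subgroup G} {p : ℕ} (h : ∀ x ∈ S, x ^ p = 1) : IsPGroup p S := by
  intro x
  exact ⟨1, by rw [pow_one]; exact Subtype.ext (by simpa using h x x.2)⟩

/-- the first structure statement -/
theorem exists_frob (h : SolvThirteen.Ord G) [Group.IsSolvable G] (h13 : 13 ∣ Nat.card G)
    (hno : ∀ N : Subgroup G, N.Normal → IsPGroup 13 N → N = ⊥) :
    ∃ (M : Subgroup G) (b : G), M.Normal ∧ M ≠ ⊥ ∧ ¬ 13 ∣ Nat.card M ∧ orderOf b = 13 ∧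
      normalizer (zpowers b : Set G) ⊔ M = ⊤ := by
  classical
  haveI hnt : Nontrivial G := by
    by_contra hn
    rw [not_nontrivial_iff_subsingleton] at hn
    have : Nat.card G = 1 := Nat.card_of_subsingleton 1
    rw [this] at h13
    exact absurd h13 (by norm_num)
  -- a normal 13'-subgroup of maximal order
  obtain ⟨M, ⟨hMn, hM13⟩, hmax⟩ : ∃ M : Subgroup G, (M.Normal ∧ ¬ 13 ∣ Nat.card M) ∧
      ∀ M' : Subgroup G, (M'.Normal ∧ ¬ 13 ∣ Nat.card M') → Nat.card M' ≤ Nat.card M := by
    haveI : Fintype (Subgroup G) := Fintype.ofFinite _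
    have hne : (Finset.univ.filter (fun M : Subgroup G => M.Normal ∧ ¬ 13 ∣ Nat.card M)).Nonempty := by
      refine ⟨⊥, ?_⟩
      rw [Finset.mem_filter]
      refine ⟨Finset.mem_univ _, inferInstance, ?_⟩
      rw [Subgroup.card_bot]; norm_num
    obtain ⟨M, hM, hmax⟩ := Finset.exists_max_image _ (fun M : Subgroup G => Nat.card M) hne
    rw [Finset.mem_filter] at hM
    exact ⟨M, hM.2, fun M' hM' => hmax M' (Finset.mem_filter.2 ⟨Finset.mem_univ _, hM'⟩)⟩
  haveI := hMn
  have hM1 : M ≠ ⊥ := by
    rintro rfl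
    obtain ⟨p, N, hp, hN, hN1, -, hNp⟩ := Cfsg.Agent.Solvable.HallAux.exists_normal_elementary (G := G)
    have hNP := isPGroup_of_pow hNp
    by_cases hp13 : p = 13
    · subst hp13
      exact hN1 (hno N hN hNP)
    · haveI := Fact.mk hp
      obtain ⟨k, hk⟩ := IsPGroup.iff_card.1 hNP
      have h1 := hmax N ⟨hN, by
        rw [hk]
        intro h13'
        have := Nat.Prime.dvd_of_dvd_pow (by norm_num : Nat.Prime 13) h13'
        exact hp13 ((Nat.prime_dvd_prime_iff_eq (by norm_num) hp).1 this).symm⟩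
      rw [Subgroup.card_bot] at h1
      exact hN1 (Subgroup.card_le_one_iff_eq_bot N |>.1 h1)
  -- a minimal normal subgroup of the quotient
  have hcardG : Nat.card G = Nat.card (G ⧸ M) * Nat.card M := Subgroup.card_eq_card_quotient_mul_card_subgroup M
  haveI : Nontrivial (G ⧸ M) := by
    by_contra hn
    rw [not_nontrivial_iff_subsingleton] at hn
    have : Nat.card (G ⧸ M) = 1 := Nat.card_of_subsingleton 1
    rw [hcardG, this, one_mul] at h13
    exact hM13 h13
  obtain ⟨p, L', hp, hL', hL1, -, hLp⟩ := Cfsg.Agent.Solvable.HallAux.exists_normal_elementary (G := G ⧸ M)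
  have hLP := isPGroup_of_pow hLp
  haveI := Fact.mk hp
  obtain ⟨a, ha⟩ := IsPGroup.iff_card.1 hLP
  set L : Subgroup G := L'.comap (QuotientGroup.mk' M) with hLdef
  haveI hLn : L.Normal := hL'.comap _
  have hML : M ≤ L := by
    intro x hx
    rw [hLdef, Subgroup.mem_comap]
    have : QuotientGroup.mk' M x = 1 := by
      rw [QuotientGroup.mk'_apply, QuotientGroup.eq_one_iff]; exact hx
    rw [this]; exact L'.one_mem
  have hcardL : Nat.card L = Nat.card L' * Nat.card M := by
    have h1 : L.index = L'.index :=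
      Subgroup.index_comap_of_surjective _ (QuotientGroup.mk'_surjective M)
    have h2 := L.index_mul_card
    have h3 := L'.index_mul_card
    rw [h1, hcardG, ← h3, mul_assoc] at h2
    exact Nat.eq_of_mul_eq_mul_left (Nat.pos_of_ne_zero Subgroup.index_ne_zero_of_finite) h2
  have hL'1 : 1 < Nat.card L' := by
    rcases Nat.lt_or_ge 1 (Nat.card L') with h1 | h1
    · exact h1
    · exact absurd (Subgroup.card_le_one_iff_eq_bot L' |>.1 h1) hL1
  have hMpos : 0 < Nat.card M := Nat.card_pos
  have hp13 : p = 13 := by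
    by_contra hp13
    have h1 := hmax L ⟨hLn, by
      rw [hcardL, ha]
      intro h13'
      rcases (Nat.Prime.dvd_mul (by norm_num : Nat.Prime 13)).1 h13' with h2 | h2
      · have := Nat.Prime.dvd_of_dvd_pow (by norm_num : Nat.Prime 13) h2
        exact hp13 ((Nat.prime_dvd_prime_iff_eq (by norm_num) hp).1 this).symm
      · exact hM13 h2⟩
    rw [hcardL] at h1
    nlinarith
  subst hp13
  -- a Sylow 13-subgroup of `L`
  obtain ⟨P⟩ : Nonempty (Sylow 13 L) := inferInstance
  have hfr := Sylow.normalizer_sup_eq_top P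
  set P' : Subgroup G := (P : Subgroup L).map L.subtype with hP'
  have hP'L : P' ≤ L := Subgroup.map_subtype_le _
  have hP'p : IsPGroup 13 P' := P.2.map L.subtype
  have hP'c : Nat.card P' ∣ 13 := h.card_dvd M P' hM1 hM13 hP'p
  have hcardP : Nat.card P' = Nat.card P := by
    rw [hP']
    exact (Nat.card_congr ((P : Subgroup L).equivMapOfInjective L.subtype
      L.subtype_injective).toEquiv).symm
  have h13L : 13 ∣ Nat.card L := by
    rw [hcardL, ha]
    refine Dvd.dvd.mul_right ?_ _
    have : a ≠ 0 := by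
      rintro rfl
      rw [pow_zero] at ha
      omega
    exact dvd_pow_self 13 this
  have hP'13 : Nat.card P' = 13 := by
    rcases (Nat.dvd_prime (by norm_num)).1 hP'c with h1 | h1
    · exfalso
      have h2 := P.dvd_card_of_dvd_card h13L
      rw [hcardP] at h1
      rw [show Nat.card P = 1 from h1] at h2
      exact absurd h2 (by norm_num)
    · exact h1
  have hcyc : IsCyclic P' := isCyclic_of_prime_card hP'13
  obtain ⟨b, hb⟩ := hcyc.exists_generator
  have hbz : zpowers (b : G) = P' := by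
    apply le_antisymm
    · rw [Subgroup.zpowers_le]; exact b.2
    · intro x hx
      obtain ⟨k, hk⟩ := Subgroup.mem_zpowers_iff.1 (hb ⟨x, hx⟩)
      rw [Subgroup.mem_zpowers_iff]
      exact ⟨k, by simpa [Subtype.ext_iff] using hk⟩
  refine ⟨M, b, hMn, hM1, hM13, ?_, ?_⟩
  · rw [← Nat.card_zpowers, hbz, hP'13]
  · rw [hbz]
    -- `L = M ⊔ P'`
    have hLM : L ≤ M ⊔ P' := by
      have h1 : (M ⊔ P' : Subgroup G) ≤ L := sup_le hML hP'L
      have h2 : (M ⊔ P' : Subgroup G).relIndex L = 1 := by
        have h3 : (M ⊔ P' : Subgroup G).relIndex L ∣ 13 ^ a := by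
          have h4 : M.relIndex L = 13 ^ a := by
            have h5 := Subgroup.card_mul_index (M.subgroupOf L)
            rw [Nat.card_congr (Subgroup.subgroupOfEquivOfLe hML).toEquiv] at h5
            have h6 : Nat.card M * M.relIndex L = Nat.card M * 13 ^ a := by
              rw [show M.relIndex L = (M.subgroupOf L).index from rfl, h5, hcardL, ha, mul_comm]
            exact Nat.eq_of_mul_eq_mul_left hMpos h6
          rw [← h4]
          exact Subgroup.relIndex_dvd_of_le_left L le_sup_left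
        have h4 : (M ⊔ P' : Subgroup G).relIndex L ∣ P'.relIndex L :=
          Subgroup.relIndex_dvd_of_le_left L le_sup_right
        have h5 : P'.relIndex L = (P : Subgroup L).index := by
          rw [show P'.relIndex L = (P'.subgroupOf L).index from rfl, hP',
            Subgroup.subgroupOf, Subgroup.comap_map_eq_self_of_injective L.subtype_injective]
        have h6 : ¬ 13 ∣ (P : Subgroup L).index := P.not_dvd_index
        rw [h5] at h4
        obtain ⟨j, -, hj⟩ := (Nat.dvd_prime_pow (by norm_num : Nat.Prime 13)).1 h3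
        rw [hj]
        rcases Nat.eq_zero_or_pos j with h7 | h7
        · rw [h7, pow_zero]
        · exfalso
          apply h6
          rw [hj] at h4
          exact dvd_trans (dvd_pow_self 13 h7.ne') h4
      exact Subgroup.relIndex_eq_one.1 h2
    have hN : P' ≤ normalizer (P' : Set G) := Subgroup.le_normalizer
    rw [eq_top_iff, ← hfr]
    refine sup_le le_sup_left (hLM.trans (sup_le le_sup_right (hN.trans le_sup_left)))

theorem isPGroup_zpowers {b : G} (hb : orderOf b = 13) : IsPGroup 13 (zpowers b) := by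
  apply IsPGroup.of_card (n := 1)
  rw [Nat.card_zpowers, hb, pow_one]

/-- elements of the normalizer in `M` are trivial -/
theorem normalizer_inf (h : SolvThirteen.Ord G) {M : Subgroup G} [M.Normal]
    (hM13 : ¬ 13 ∣ Nat.card M) {b : G} (hb : orderOf b = 13) :
    normalizer (zpowers b : Set G) ⊓ M = ⊥ := by
  rw [eq_bot_iff]
  rintro x ⟨hx, hxM⟩
  have hc : Commute x b := by
    have h1 : x * b * x⁻¹ * b⁻¹ ∈ M ⊓ zpowers b := by
      constructor
      · have : b * x⁻¹ * b⁻¹ ∈ M := (inferInstance : M.Normal).conj_mem _ (M.inv_mem hxM) b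
        have := M.mul_mem hxM this
        simpa [mul_assoc] using this
      · have h2 : x * b * x⁻¹ ∈ zpowers b :=
          (Subgroup.mem_normalizer_iff.1 hx b).1 (Subgroup.mem_zpowers b)
        exact (zpowers b).mul_mem h2 ((zpowers b).inv_mem (Subgroup.mem_zpowers b))
    rw [inf_eq_bot hM13 (isPGroup_zpowers hb), mem_bot] at h1
    have h2 : x * b * x⁻¹ = b := by
      rw [mul_inv_eq_one] at h1; exact h1
    rw [mul_inv_eq_iff_eq_mul] at h2
    exact h2
  rw [mem_bot]
  rcases h.commute hb hc with h1 | h1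
  · exact orderOf_eq_one_iff.1 h1
  · exfalso
    apply hM13
    rw [← h1]
    have := orderOf_dvd_natCard (⟨x, hxM⟩ : M)
    rwa [Subgroup.orderOf_mk] at this

theorem normalizerHom_apply (b : G) (g : normalizer (zpowers b : Set G)) (x : zpowers b) :
    (((zpowers b).normalizerMonoidHom g x : zpowers b) : G) = g * x * (g : G)⁻¹ := rfl

theorem exists_index (h : SolvThirteen.Ord G) {M : Subgroup G} [M.Normal] (hM1 : M ≠ ⊥)
    (hM13 : ¬ 13 ∣ Nat.card M) {b : G} (hb : orderOf b = 13)
    (hN : normalizer (zpowers b : Set G) ⊔ M = ⊤) :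
    ∃ n : ℕ, n ∣ 12 ∧ Nat.card G = Nat.card M * (13 * n) ∧
      ∀ m : ℕ, 0 < m → m ∣ n → ∃ (c : G) (k : ℕ), c ∈ normalizer (zpowers b : Set G) ∧
        orderOf c = m ∧ c * b = b ^ k * c ∧
        ∀ i, 0 < i → i < m → ¬ (13 : ℤ) ∣ 1 - (k : ℤ) ^ i := by
  classical
  have hinf := normalizer_inf h hM13 hb
  set N : Subgroup G := normalizer (zpowers b : Set G) with hNdef
  have hcb : Nat.card (zpowers b) = 13 := by rw [Nat.card_zpowers, hb]
  have hbN : b ∈ N := Subgroup.le_normalizer (Subgroup.mem_zpowers b)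
  set φ : N →* MulAut (zpowers b) := (zpowers b).normalizerMonoidHom with hφ
  have hker : ∀ g : N, g ∈ φ.ker → Commute (g : G) b := by
    intro g hg
    have h1 : φ g = 1 := hg
    have h2 : φ g ⟨b, Subgroup.mem_zpowers b⟩ = ⟨b, Subgroup.mem_zpowers b⟩ := by rw [h1]; rfl
    have h3 := congrArg Subtype.val h2
    rw [hφ, normalizerHom_apply] at h3
    rw [mul_inv_eq_iff_eq_mul] at h3
    exact h3
  have hker' : ∀ g : N, Commute (g : G) b → g ∈ φ.ker := by
    intro g hg
    rw [MonoidHom.mem_ker]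
    ext x
    rw [hφ, normalizerHom_apply]
    have : Commute (g : G) x := by
      obtain ⟨k, hk⟩ := Subgroup.mem_zpowers_iff.1 x.2
      rw [← hk]
      exact hg.zpow_right k
    rw [this.eq]
    simp
  have hbker : (⟨b, hbN⟩ : N) ∈ φ.ker := hker' _ (Commute.refl b)
  have hpow : ∀ g ∈ φ.ker, g ^ 13 = 1 := by
    intro g hg
    apply Subtype.ext
    rcases h.commute hb (hker g hg) with h1 | h1
    · rw [orderOf_eq_one_iff] at h1
      simp [h1]
    · have := pow_orderOf_eq_one (g : G)
      rw [h1] at this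
      simpa using this
  have hkerp : IsPGroup 13 (φ.ker.map N.subtype) := by
    apply isPGroup_of_pow
    rintro x ⟨y, hy, rfl⟩
    rw [← map_pow, hpow y hy, map_one]
  have hcardker : Nat.card φ.ker = 13 := by
    have h1 : Nat.card (φ.ker.map N.subtype) = Nat.card φ.ker :=
      (Nat.card_congr (φ.ker.equivMapOfInjective N.subtype N.subtype_injective).toEquiv).symm
    have h2 := h.card_dvd M _ hM1 hM13 hkerp
    rw [h1] at h2
    have h3 : orderOf (⟨b, hbN⟩ : N) ∣ Nat.card φ.ker := by
      have := orderOf_dvd_natCard (⟨⟨b, hbN⟩, hbker⟩ : φ.ker)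
      rwa [Subgroup.orderOf_mk] at this
    rw [Subgroup.orderOf_mk, hb] at h3
    exact Nat.dvd_antisymm h2 h3
  have hcardN : Nat.card N = 13 * Nat.card φ.range := by
    have h1 := φ.ker.index_mul_card
    rw [Subgroup.index_ker, hcardker] at h1
    rw [← h1, mul_comm]
  haveI hcycA : IsCyclic (MulAut (zpowers b)) := by
    have e := IsCyclic.mulAutMulEquiv (zpowers b)
    rw [hcb] at e
    exact e.symm.isCyclic.1 inferInstance
  have hcardA : Nat.card (MulAut (zpowers b)) = 12 := by
    rw [IsCyclic.card_mulAut, hcb]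
    decide
  refine ⟨Nat.card φ.range, ?_, ?_, ?_⟩
  · rw [← hcardA]; exact Subgroup.card_subgroup_dvd_card _
  · have hc : Subgroup.IsComplement' N M := by
      apply Subgroup.isComplement'_of_disjoint_and_mul_eq_univ
      · rw [disjoint_iff]; exact hinf
      · rw [← Subgroup.mul_normal N M, hN]; rfl
    rw [← hcardN, ← hc.card_mul_card, mul_comm]
  · intro m hm hmn
    have hcycR : IsCyclic φ.range := inferInstance
    obtain ⟨ρ, hρ⟩ := hcycR.exists_generator
    have hρo : orderOf ρ = Nat.card φ.range := by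
      rw [← Nat.card_zpowers, (eq_top_iff.2 (fun z _ => hρ z) : zpowers ρ = ⊤), Subgroup.card_top]
    obtain ⟨d, hd⟩ := hmn
    obtain ⟨g₀, hg₀⟩ : ∃ g₀ : N, φ g₀ = (ρ : MulAut (zpowers b)) := ρ.2
    have hd0 : d ≠ 0 := by
      rintro rfl
      have : 0 < Nat.card φ.range := Nat.card_pos
      omega
    -- the image of `g₀ ^ d` has order `m`
    have hord : orderOf (φ (g₀ ^ d)) = m := by
      rw [map_pow, hg₀, ← Subgroup.coe_pow, Subgroup.orderOf_coe, orderOf_pow' _ hd0, hρo, hd,
        Nat.gcd_eq_right (Dvd.intro_left m rfl)]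
      exact Nat.mul_div_cancel m (Nat.pos_of_ne_zero hd0)
    set g : N := g₀ ^ d with hg
    have hgm : g ^ m ∈ φ.ker := by
      rw [MonoidHom.mem_ker, map_pow, ← hord, pow_orderOf_eq_one]
    have hcm : (g ^ 13) ^ m = 1 := by
      rw [← pow_mul, mul_comm, pow_mul]
      exact hpow _ hgm
    have hm12 : m ∣ 12 := by
      have : m ∣ Nat.card φ.range := ⟨d, hd⟩
      refine this.trans ?_
      rw [← hcardA]; exact Subgroup.card_subgroup_dvd_card _
    have hord13 : orderOf (φ (g ^ 13)) = m := by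
      rw [map_pow, orderOf_pow' _ (by norm_num), hord]
      have : Nat.gcd m 13 = 1 := by
        have h1 : Nat.Coprime 12 13 := by norm_num
        exact Nat.Coprime.coprime_dvd_left hm12 h1
      rw [this, Nat.div_one]
    set c : N := g ^ 13 with hc
    -- conjugation by `c`
    obtain ⟨k, hk⟩ : ∃ k : ℕ, (c : G) * b * (c : G)⁻¹ = b ^ k := by
      have h2 : (c : G) * b * (c : G)⁻¹ ∈ zpowers b :=
        (Subgroup.mem_normalizer_iff.1 c.2 b).1 (Subgroup.mem_zpowers b)
      obtain ⟨k, hk⟩ := (mem_powers_iff_mem_zpowers (x := b)).2 h2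
      exact ⟨k, hk.symm⟩
    refine ⟨c, k, c.2, ?_, ?_, ?_⟩
    · apply Nat.dvd_antisymm
      · apply orderOf_dvd_of_pow_eq_one
        rw [← Subgroup.coe_pow, hcm]; rfl
      · rw [← hord13, Subgroup.orderOf_coe]
        exact orderOf_map_dvd φ c
    · rw [← hk]; group
    · intro i hi0 him hdiv
      have hki : ∀ i : ℕ, (c : G) ^ i * b * ((c : G) ^ i)⁻¹ = b ^ (k ^ i) := by
        intro i
        induction i with
        | zero => simp
        | succ i ih =>
          have : (c : G) ^ (i + 1) * b * ((c : G) ^ (i + 1))⁻¹ =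
              (c : G) ^ i * ((c : G) * b * (c : G)⁻¹) * ((c : G) ^ i)⁻¹ := by
            rw [pow_succ]; group
          rw [this, hk, ← conj_pow, ih, ← pow_mul, ← pow_succ]
      have h1 : b ^ (k ^ i) = b := by
        have h2 : ((k ^ i : ℕ) : ℤ) ≡ 1 [ZMOD 13] := by
          rw [Int.modEq_iff_dvd]
          push_cast
          exact hdiv
        have h3 : k ^ i ≡ 1 [MOD 13] := by
          have := (Int.natCast_modEq_iff (a := k ^ i) (b := 1) (n := 13)).1 (by exact_mod_cast h2)
          exact this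
        rw [← hb] at h3
        have := (pow_eq_pow_iff_modEq (x := b)).2 h3
        rwa [pow_one] at this
      have h4 : c ^ i ∈ φ.ker := by
        apply hker'
        have h5 := hki i
        rw [h1, mul_inv_eq_iff_eq_mul] at h5
        rw [Subgroup.coe_pow]
        exact h5
      have h6 : m ∣ i := by
        rw [← hord13]
        apply orderOf_dvd_of_pow_eq_one
        rw [← map_pow]; exact h4
      exact absurd (Nat.le_of_dvd hi0 h6) (by omega)

/-- the normal subgroup is nilpotent -/
theorem isNilpotent (h : SolvThirteen.Ord G) {M : Subgroup G} [M.Normal] (hM1 : M ≠ ⊥)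
    (hM13 : ¬ 13 ∣ Nat.card M) {b : G} (hb : orderOf b = 13) : Group.IsNilpotent M := by
  have hfix : ∀ v ∈ M, b * v = v * b → v = 1 := by
    intro v hv hbv
    rcases h.commute hb (show Commute v b from hbv.symm) with h1 | h1
    · exact orderOf_eq_one_iff.1 h1
    · exfalso
      apply hM13
      rw [← h1]
      have := orderOf_dvd_natCard (⟨v, hv⟩ : M)
      rwa [Subgroup.orderOf_mk] at this
  have hfp : ∀ v : M, (MulAut.conjNormal b : MulAut M) v = v → v = 1 := by
    intro v hv
    apply Subtype.ext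
    apply hfix v v.2
    have := congrArg Subtype.val hv
    rw [MulAut.conjNormal_apply, mul_inv_eq_iff_eq_mul] at this
    exact this
  refine Cfsg.Agent.S0033.result (MulAut.conjNormal b : MulAut M) ?_ 13 (by norm_num) ?_
  · intro v hv
    exact hfp v hv
  · have h1 : orderOf (MulAut.conjNormal b : MulAut M) ∣ 13 := by
      rw [← hb]; exact orderOf_map_dvd _ b
    rcases (Nat.dvd_prime (by norm_num)).1 h1 with h2 | h2
    · exfalso
      rw [orderOf_eq_one_iff] at h2
      apply hM1
      rw [eq_bot_iff]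
      intro v hv
      have := hfp ⟨v, hv⟩ (by rw [h2]; rfl)
      rw [mem_bot]
      exact congrArg Subtype.val this
    · exact h2

theorem exists_order (h : SolvThirteen.Ord G) {M : Subgroup G} [M.Normal] (hM1 : M ≠ ⊥)
    (hM13 : ¬ 13 ∣ Nat.card M) {b : G} (hb : orderOf b = 13)
    {r : ℕ} (hr : r.Prime) (hrM : r ∣ Nat.card M) {m k : ℕ} (hm : 0 < m) {c : G}
    (hcN : c ∈ normalizer (zpowers b : Set G)) (hcm : orderOf c = m) (hcb : c * b = b ^ k * c)
    (hk : ∀ i, 0 < i → i < m → ¬ (13 : ℤ) ∣ 1 - (k : ℤ) ^ i) :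
    ∃ (g : G) (j : ℕ), 0 < j ∧ orderOf g = m * r ^ j := by
  classical
  haveI := Fact.mk hr
  have hnil := isNilpotent h hM1 hM13 hb
  have hinf := normalizer_inf h hM13 hb
  have hfix : ∀ v ∈ M, b * v = v * b → v = 1 := by
    intro v hv hbv
    rcases h.commute hb (show Commute v b from hbv.symm) with h1 | h1
    · exact orderOf_eq_one_iff.1 h1
    · exfalso
      apply hM13
      rw [← h1]
      have := orderOf_dvd_natCard (⟨v, hv⟩ : M)
      rwa [Subgroup.orderOf_mk] at this
  obtain ⟨R⟩ : Nonempty (Sylow r M) := inferInstance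
  have hRn : (R : Subgroup M).Normal := by
    have := ((Group.isNilpotent_of_finite_tfae (G := M)).out 0 3).1 hnil
    exact this r ⟨hr⟩ R
  haveI hRc : (R : Subgroup M).Characteristic := Sylow.characteristic_of_normal R hRn
  set R' : Subgroup G := (R : Subgroup M).map M.subtype with hR'
  haveI hR'n : R'.Normal := inferInstance
  have hR'M : R' ≤ M := Subgroup.map_subtype_le _
  have hR'p : IsPGroup r R' := R.2.map M.subtype
  haveI : Nontrivial R' := by
    have h1 : Nat.card R' = Nat.card R :=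
      (Nat.card_congr ((R : Subgroup M).equivMapOfInjective M.subtype M.subtype_injective).toEquiv).symm
    have h2 := R.dvd_card_of_dvd_card hrM
    have h3 : r ∣ Nat.card R' := by rw [h1]; exact h2
    apply Finite.one_lt_card_iff_nontrivial.1
    have := Nat.le_of_dvd Nat.card_pos h3
    exact lt_of_lt_of_le hr.one_lt this
  set V : Subgroup G := (center R').map R'.subtype with hV
  haveI hVn : V.Normal := inferInstance
  have hVR : V ≤ R' := Subgroup.map_subtype_le _
  have hVcomm : ∀ x ∈ V, ∀ y ∈ V, x * y = y * x := by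
    rintro x ⟨x', hx', rfl⟩ y ⟨y', hy', rfl⟩
    rw [← map_mul, ← map_mul]
    exact congrArg _ ((Subgroup.mem_center_iff.1 hx' y').symm)
  obtain ⟨v₀', hv₀', hv₀1⟩ : ∃ v ∈ center R', v ≠ 1 := by
    haveI := hR'p.center_nontrivial
    obtain ⟨v, hv⟩ := exists_ne (1 : center R')
    exact ⟨v, v.2, fun h' => hv (Subtype.ext h')⟩
  have hv₀ : (v₀' : G) ∈ V := ⟨v₀', hv₀', rfl⟩
  have hv₀ne : (v₀' : G) ≠ 1 := fun h' => hv₀1 (Subtype.ext h')
  have hr13 : r ≠ 13 := by rintro rfl; exact hM13 hrM
  have hVel : ∀ v ∈ V, ∃ j, orderOf v = r ^ j := by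
    intro v hv
    obtain ⟨j, hj⟩ := hR'p ⟨v, hVR hv⟩
    have hj' : v ^ r ^ j = 1 := by simpa [Subtype.ext_iff] using hj
    obtain ⟨i, -, hi⟩ := (Nat.dvd_prime_pow hr).1 (orderOf_dvd_of_pow_eq_one hj')
    exact ⟨i, hi⟩
  have hv₀p : (v₀' : G) ^ 13 ≠ 1 := by
    intro h'
    obtain ⟨j, hj⟩ := hVel _ hv₀
    have h1 := orderOf_dvd_of_pow_eq_one h'
    rw [hj] at h1
    rcases (Nat.dvd_prime (by norm_num : Nat.Prime 13)).1 h1 with h2 | h2
    · rw [h2] at hj
      exact hv₀ne (orderOf_eq_one_iff.1 hj)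
    · have : 13 ∣ r ^ j := by rw [h2]
      have := Nat.Prime.dvd_of_dvd_pow (by norm_num : Nat.Prime 13) this
      exact hr13 ((Nat.prime_dvd_prime_iff_eq (by norm_num) hr).1 this).symm
  obtain ⟨v, hv, hvm⟩ := NormLemma.exists_pow_ne hVcomm (by norm_num : Nat.Prime 13) hm
    (by rw [← hb]; exact pow_orderOf_eq_one b) hcb hk (fun v hv => hfix v (hR'M (hVR hv)))
    (by rw [← hcm]; exact pow_orderOf_eq_one c) hv₀ hv₀p
  -- powers of `v * c`
  have hvc : ∀ i : ℕ, (v * c) ^ i * (c ^ i)⁻¹ ∈ V := by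
    intro i
    induction i with
    | zero => simp [V.one_mem]
    | succ i ih =>
      have : (v * c) ^ (i + 1) * (c ^ (i + 1))⁻¹ =
          v * (c * ((v * c) ^ i * (c ^ i)⁻¹) * c⁻¹) := by
        rw [pow_succ', pow_succ']; group
      rw [this]
      exact V.mul_mem hv (hVn.conj_mem _ ih c)
  have hcm' : c ^ m = 1 := by rw [← hcm]; exact pow_orderOf_eq_one c
  have hmV : (v * c) ^ m ∈ V := by
    have := hvc m
    rwa [hcm', inv_one, mul_one] at this
  obtain ⟨j, hj⟩ := hVel _ hmV
  have hj0 : 0 < j := by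
    rcases Nat.eq_zero_or_pos j with h1 | h1
    · exfalso
      rw [h1, pow_zero] at hj
      exact hvm (orderOf_eq_one_iff.1 hj)
    · exact h1
  have hmo : m ∣ orderOf (v * c) := by
    rw [← hcm]
    apply orderOf_dvd_of_pow_eq_one
    have h1 := hvc (orderOf (v * c))
    rw [pow_orderOf_eq_one, one_mul] at h1
    have h2 : c ^ orderOf (v * c) ∈ M := by
      have := V.inv_mem h1
      rw [inv_inv] at this
      exact hR'M (hVR this)
    have h3 : c ^ orderOf (v * c) ∈ normalizer (zpowers b : Set G) ⊓ M :=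
      ⟨Subgroup.pow_mem _ hcN _, h2⟩
    rw [hinf, mem_bot] at h3
    exact h3
  refine ⟨v * c, j, hj0, ?_⟩
  rw [orderOf_pow' _ hm.ne', Nat.gcd_eq_right hmo] at hj
  rw [← hj, Nat.mul_div_cancel' hmo]

/-- **Case B** -/
theorem false_of_no_normal (h : SolvThirteen.Ord G) [Group.IsSolvable G] (h13 : 13 ∣ Nat.card G)
    (h3 : 3 ∣ Nat.card G) (h8 : ∃ x : G, orderOf x = 8)
    (hno : ∀ N : Subgroup G, N.Normal → IsPGroup 13 N → N = ⊥) : False := by
  classical
  obtain ⟨M, b, hMn, hM1, hM13, hb, hN⟩ := exists_frob h h13 hno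
  haveI := hMn
  obtain ⟨n, hn12, hcard, hn⟩ := exists_index h hM1 hM13 hb hN
  have hnil := isNilpotent h hM1 hM13 hb
  have hindex : M.index = 13 * n := by
    have h1 := M.card_mul_index
    rw [hcard] at h1
    exact Nat.eq_of_mul_eq_mul_left Nat.card_pos h1
  obtain ⟨x, hx⟩ := h8
  have hno' : ∀ (m : ℕ) (r : ℕ), r.Prime → r ∣ Nat.card M → 0 < m → m ∣ n →
      ∃ (g : G) (j : ℕ), 0 < j ∧ orderOf g = m * r ^ j := by
    intro m r hr hrM hm hmn
    obtain ⟨c, k, hcN, hcm, hcb, hk⟩ := hn m hm hmn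
    exact exists_order h hM1 hM13 hb hr hrM hm hcN hcm hcb hk
  by_cases h3M : 3 ∣ Nat.card M
  · -- `n` divides two
    have hn3 : ¬ 3 ∣ n := by
      intro h3n
      obtain ⟨g, j, hj, hg⟩ := hno' 3 3 (by norm_num) h3M (by norm_num) h3n
      have h1 := h g
      rw [hg] at h1
      obtain ⟨j, rfl⟩ : ∃ i, j = i + 1 := ⟨j - 1, by omega⟩
      rw [pow_succ] at h1
      omega
    have hn4 : ¬ 4 ∣ n := by
      intro h4n
      obtain ⟨g, j, hj, hg⟩ := hno' 4 3 (by norm_num) h3M (by norm_num) h4n
      have h1 := h g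
      rw [hg] at h1
      obtain ⟨j, rfl⟩ : ∃ i, j = i + 1 := ⟨j - 1, by omega⟩
      rw [pow_succ] at h1
      omega
    have hn2 : n ∣ 2 := by
      have : n ≤ 12 := Nat.le_of_dvd (by norm_num) hn12
      interval_cases n <;> omega
    have hx2 : x ^ 2 ∈ M := by
      have h1 : orderOf (QuotientGroup.mk' M x) ∣ 8 := by
        rw [← hx]; exact orderOf_map_dvd _ x
      have h2 : orderOf (QuotientGroup.mk' M x) ∣ 26 := by
        have h4 : orderOf (QuotientGroup.mk' M x) ∣ Nat.card (G ⧸ M) := orderOf_dvd_natCard _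
        rw [← Subgroup.index_eq_card, hindex] at h4
        exact h4.trans (Nat.mul_dvd_mul_left 13 hn2)
      have h4 : orderOf (QuotientGroup.mk' M x) ∣ 2 := by
        have := Nat.dvd_gcd h1 h2
        exact this
      have h5 : (QuotientGroup.mk' M x) ^ 2 = 1 := orderOf_dvd_iff_pow_eq_one.1 h4
      rw [← map_pow, QuotientGroup.mk'_apply, QuotientGroup.eq_one_iff] at h5
      exact h5
    haveI : Fact (Nat.Prime 3) := ⟨by norm_num⟩
    obtain ⟨v, hv⟩ := exists_prime_orderOf_dvd_card' 3 h3M
    have hx4 : orderOf (⟨x ^ 2, hx2⟩ : M) = 4 := by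
      rw [Subgroup.orderOf_mk, orderOf_pow' _ (by norm_num), hx]
      norm_num
    have hcomm : Commute (⟨x ^ 2, hx2⟩ : M) v := by
      haveI := hnil
      exact Cfsg.Agent.Lib.NilpotentCoprime.commute_of_coprime_orderOf (by rw [hx4, hv]; norm_num)
    have h1 := hcomm.orderOf_mul_eq_mul_orderOf_of_coprime (by rw [hx4, hv]; norm_num)
    rw [hx4, hv] at h1
    have h2 := h ((⟨x ^ 2, hx2⟩ : M) * v : M)
    rw [Subgroup.orderOf_coe, h1] at h2
    omega
  · -- `M` is a 2-group
    have hM2 : ∀ r : ℕ, r.Prime → r ∣ Nat.card M → r = 2 := by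
      intro r hr hrM
      rcases h.prime hr (hrM.trans (Subgroup.card_subgroup_dvd_card M)) with h1 | h1 | h1
      · exact h1
      · subst h1; exact absurd hrM h3M
      · subst h1; exact absurd hrM hM13
    have hMcard := Nat.eq_prime_pow_of_unique_prime_dvd (n := Nat.card M) (p := 2)
      Nat.card_pos.ne' (fun {d} hd hdM => hM2 d hd hdM)
    have hMP : IsPGroup 2 M := IsPGroup.of_card hMcard
    have h2M : 2 ∣ Nat.card M := by
      rcases Nat.eq_zero_or_pos (Nat.card M).primeFactorsList.length with h1 | h1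
      · exfalso
        rw [h1, pow_zero] at hMcard
        exact hM1 (Subgroup.card_eq_one.1 hMcard)
      · rw [hMcard]; exact dvd_pow_self 2 h1.ne'
    have hn3 : 3 ∣ n := by
      rw [hcard] at h3
      rcases (Nat.Prime.dvd_mul (by norm_num)).1 h3 with h1 | h1
      · exact absurd h1 h3M
      · omega
    have hn2 : ¬ 2 ∣ n := by
      intro h2n
      obtain ⟨g, j, hj, hg⟩ := hno' 6 2 (by norm_num) h2M (by norm_num) (by omega)
      have h1 := h g
      rw [hg] at h1
      obtain ⟨j, rfl⟩ : ∃ i, j = i + 1 := ⟨j - 1, by omega⟩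
      rw [pow_succ] at h1
      omega
    have hn' : n = 3 := by
      have : n ≤ 12 := Nat.le_of_dvd (by norm_num) hn12
      interval_cases n <;> omega
    subst hn'
    have hxM : x ∈ M := by
      have h1 : orderOf (QuotientGroup.mk' M x) ∣ 8 := by
        rw [← hx]; exact orderOf_map_dvd _ x
      have h2 : orderOf (QuotientGroup.mk' M x) ∣ 39 := by
        have h4 : orderOf (QuotientGroup.mk' M x) ∣ Nat.card (G ⧸ M) := orderOf_dvd_natCard _
        rw [← Subgroup.index_eq_card, hindex] at h4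
        exact h4
      have h4 : orderOf (QuotientGroup.mk' M x) ∣ 1 := by
        have := Nat.dvd_gcd h1 h2
        exact this
      rw [Nat.dvd_one, orderOf_eq_one_iff, QuotientGroup.mk'_apply, QuotientGroup.eq_one_iff] at h4
      exact h4
    obtain ⟨c, k, hcN, hcm, hcb, hk⟩ := hn 3 (by norm_num) (dvd_refl 3)
    have hb13 : b ^ 13 = 1 := by rw [← hb]; exact pow_orderOf_eq_one b
    have hc3 : c ^ 3 = 1 := by rw [← hcm]; exact pow_orderOf_eq_one c
    have hconj : c * b * c⁻¹ = b ^ k := by rw [hcb]; group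
    have hk3 : k ^ 3 ≡ 1 [MOD 13] := by
      have h1 : c ^ 3 * b * (c ^ 3)⁻¹ = b ^ (k ^ 3) := by
        have h2 : c ^ 3 * b * (c ^ 3)⁻¹ = c * (c * (c * b * c⁻¹) * c⁻¹) * c⁻¹ := by
          rw [pow_succ, pow_succ, pow_one]; simp only [mul_inv_rev, mul_assoc]
        rw [h2, hconj, ← conj_pow, hconj, ← pow_mul, ← conj_pow, hconj, ← pow_mul]
        congr 1; ring
      rw [hc3, one_mul, inv_one, mul_one] at h1
      have h2 : b ^ (k ^ 3) = b ^ 1 := by rw [pow_one]; exact h1.symm
      have := (pow_eq_pow_iff_modEq (x := b)).1 h2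
      rwa [hb] at this
    have hk1 : ¬ k ≡ 1 [MOD 13] := by
      intro h1
      apply hk 1 (by norm_num) (by norm_num)
      have := (Int.natCast_modEq_iff (a := k) (b := 1) (n := 13)).2 h1
      rw [Int.modEq_iff_dvd] at this
      rw [pow_one]
      exact_mod_cast this
    have hkcase : k % 13 = 3 ∨ k % 13 = 9 := by
      have h1 : (k % 13) ^ 3 % 13 = 1 := by
        rw [← Nat.pow_mod]; exact hk3
      have h2 : k % 13 ≠ 1 := hk1
      have h4 : k % 13 < 13 := Nat.mod_lt _ (by norm_num)
      generalize k % 13 = q at h1 h2 h4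
      interval_cases q <;> omega
    have hbk : b ^ k = b ^ (k % 13) := by
      rw [← hb, pow_mod_orderOf]
    obtain ⟨c', hc'o, hbc'⟩ : ∃ c' : G, orderOf c' = 3 ∧ b * c' = c' * b ^ 3 := by
      rcases hkcase with h1 | h1
      · refine ⟨c⁻¹, by rw [orderOf_inv, hcm], ?_⟩
        rw [h1] at hbk
        rw [hbk] at hcb
        have h2 : b = c⁻¹ * b ^ 3 * c := by
          rw [mul_assoc, ← hcb]; group
        rw [eq_comm, ← mul_inv_eq_iff_eq_mul, inv_inv]
        exact h2.symm
      · refine ⟨c, hcm, ?_⟩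
        rw [h1] at hbk
        rw [hbk] at hconj
        have h2 : c * b ^ 3 * c⁻¹ = b := by
          rw [← conj_pow, hconj, ← pow_mul]
          rw [show 9 * 3 = 13 * 2 + 1 by norm_num, pow_add, pow_mul, hb13, one_pow, one_mul, pow_one]
        rw [mul_inv_eq_iff_eq_mul] at h2
        exact h2.symm
    have hmain := ExpFour.main hMP (MulAut.conjNormal b : MulAut M) (MulAut.conjNormal c' : MulAut M)
      (by rw [← map_pow, hb13, map_one])
      (by rw [← map_pow, ← hc'o, pow_orderOf_eq_one, map_one])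
      (by rw [← map_pow, ← map_mul, ← map_mul, hbc'])
      (by
        intro v hv
        apply Subtype.ext
        have h1 := congrArg Subtype.val hv
        rw [MulAut.conjNormal_apply, mul_inv_eq_iff_eq_mul] at h1
        rcases h.commute hb (show Commute (v : G) b from h1.symm) with h2 | h2
        · exact orderOf_eq_one_iff.1 h2
        · exfalso
          apply hM13
          rw [← h2, Subgroup.orderOf_coe]
          exact orderOf_dvd_natCard v)
      (by
        intro v hv
        have h1 := congrArg Subtype.val hv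
        rw [MulAut.conjNormal_apply, mul_inv_eq_iff_eq_mul] at h1
        obtain ⟨j, hj⟩ : ∃ j, orderOf v = 2 ^ j := by
          obtain ⟨j, hj⟩ := hMP v
          obtain ⟨i, -, hi⟩ := (Nat.dvd_prime_pow (by norm_num)).1 (orderOf_dvd_of_pow_eq_one hj)
          exact ⟨i, hi⟩
        have h2 : Commute c' (v : G) := h1
        have h4 := h2.orderOf_mul_eq_mul_orderOf_of_coprime (by
          rw [hc'o, Subgroup.orderOf_coe, hj]
          exact Nat.Coprime.pow_right j (by norm_num))
        rw [hc'o, Subgroup.orderOf_coe, hj] at h4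
        have h5 := h (c' * v)
        rw [h4] at h5
        have h6 : j ≤ 1 := by
          by_contra hcon
          obtain ⟨i, rfl⟩ : ∃ i, j = i + 2 := ⟨j - 2, by omega⟩
          rw [pow_add] at h5
          omega
        have h7 : v ^ 2 = 1 := by
          apply orderOf_dvd_iff_pow_eq_one.1
          rw [hj]
          exact pow_dvd_pow 2 h6 |>.trans (by norm_num)
        rw [← sq]; exact h7)
    have h4 := hmain.2 ⟨x, hxM⟩
    have h5 : x ^ 4 = 1 := by simpa [Subtype.ext_iff] using h4
    have h6 := orderOf_dvd_of_pow_eq_one h5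
    rw [hx] at h6
    omega

end

end Cfsg.Agent.H406.SolvFrob
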