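import Cfsg.Agent.H406.ExpFour
import Cfsg.Agent.H406.NormLemma
import Cfsg.Agent.S0033
import Cfsg.Agent.S0040
import Cfsg.Agent.Solvable.HallAux

/-!
# Solvable groups with the element orders of `PSL₃(3)`

Such a group has a nontrivial normal 13-subgroup.
-/

set_option autoImplicit false
set_option linter.unusedSectionVars false
set_option linter.style.haveILetI false

namespace Cfsg.Agent.H406.SolvThirteen

open Subgroup

/-- The element orders are among those of `PSL₃(3)`. -/
def Ord (G : Type*) [Group G] : Prop := ∀ g : G, orderOf g = 1 ∨ orderOf g = 2 ∨ orderOf g = 3 ∨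
  orderOf g = 4 ∨ orderOf g = 6 ∨ orderOf g = 8 ∨ orderOf g = 13

instance instFact13 : Fact (Nat.Prime 13) := ⟨by norm_num⟩

section

variable {G : Type*} [Group G] [Finite G]

theorem Ord.prime (h : Ord G) {r : ℕ} (hr : r.Prime) (hd : r ∣ Nat.card G) :
    r = 2 ∨ r = 3 ∨ r = 13 := by
  haveI := Fact.mk hr
  obtain ⟨y, hy⟩ := exists_prime_orderOf_dvd_card' r hd
  have := h y
  rw [hy] at this
  rcases this with h | h | h | h | h | h | h
  · exact absurd h hr.one_lt.ne'
  · exact Or.inl h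
  · exact Or.inr (Or.inl h)
  · subst h; exact absurd hr (by norm_num)
  · subst h; exact absurd hr (by norm_num)
  · subst h; exact absurd hr (by norm_num)
  · exact Or.inr (Or.inr h)

theorem Ord.commute (h : Ord G) {x g : G} (hx : orderOf x = 13) (hc : Commute g x) :
    orderOf g = 1 ∨ orderOf g = 13 := by
  by_contra hcon
  push Not at hcon
  have h1 := h g
  have hcop : Nat.Coprime (orderOf g) (orderOf x) := by
    rw [hx]
    rcases h1 with h | h | h | h | h | h | h
    · exact absurd h hcon.1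
    · rw [h]; norm_num
    · rw [h]; norm_num
    · rw [h]; norm_num
    · rw [h]; norm_num
    · rw [h]; norm_num
    · exact absurd h hcon.2
  have h2 := hc.orderOf_mul_eq_mul_orderOf_of_coprime hcop
  rw [hx] at h2
  have h3 := h (g * x)
  rw [h2] at h3
  omega

/-- A `p`-group acting without fixed points is cyclic, for odd `p`. -/
theorem cyclic_of_fpf {p : ℕ} [hp : Fact p.Prime] (hp2 : p ≠ 2) (M S : Subgroup G) [M.Normal]
    (hM : M ≠ ⊥) (hS : IsPGroup p S) (hMS : M ⊓ S = ⊥)
    (hfpf : ∀ s ∈ S, s ≠ 1 → ∀ m ∈ M, Commute s m → m = 1) : IsCyclic S := by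
  set L : Subgroup G := M ⊔ S with hL
  have hML : M ≤ L := le_sup_left
  have hSL : S ≤ L := le_sup_right
  have hc : Subgroup.IsComplement' (M.subgroupOf L) (S.subgroupOf L) := by
    apply Subgroup.isComplement'_of_disjoint_and_mul_eq_univ
    · rw [Subgroup.disjoint_def]
      intro x hx hx'
      have : (x : G) ∈ M ⊓ S := ⟨hx, hx'⟩
      rw [hMS, mem_bot] at this
      exact Subtype.ext this
    · rw [Set.eq_univ_iff_forall]
      rintro ⟨x, hx⟩
      obtain ⟨m, hm, s, hs, rfl⟩ := Subgroup.mem_sup_of_normal_left.1 hx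
      exact ⟨⟨m, hML hm⟩, hm, ⟨s, hSL hs⟩, hs, rfl⟩
  have hM' : M.subgroupOf L ≠ ⊥ := by
    intro h
    rw [Subgroup.subgroupOf_eq_bot, disjoint_iff, inf_eq_left.2 hML] at h
    exact hM h
  have hfp : ∀ h ∈ S.subgroupOf L, h ≠ 1 → M.subgroupOf L ⊓ Subgroup.centralizer {h} = ⊥ := by
    intro h hh h1
    rw [eq_bot_iff]
    rintro x ⟨hx, hxc⟩
    rw [mem_bot]
    apply Subtype.ext
    have h1' : (h : G) ≠ 1 := fun h' => h1 (Subtype.ext h')
    refine hfpf h hh h1' x hx ?_
    have := (Subgroup.mem_centralizer_iff.1 hxc) h rfl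
    exact congrArg Subtype.val this
  have hS' : IsPGroup p (S.subgroupOf L) := by
    intro x
    obtain ⟨k, hk⟩ := hS ⟨x.1.1, x.2⟩
    refine ⟨k, ?_⟩
    apply Subtype.ext
    apply Subtype.ext
    simpa [Subtype.ext_iff] using hk
  obtain ⟨P⟩ : Nonempty (Sylow p (S.subgroupOf L)) := inferInstance
  have hPtop : (P : Subgroup (S.subgroupOf L)) = ⊤ := by
    have h1 : IsPGroup p (⊤ : Subgroup (S.subgroupOf L)) := hS'.to_subgroup ⊤
    exact (P.3 h1 le_top).symm
  rcases Cfsg.Agent.S0040.result (M.subgroupOf L) (S.subgroupOf L) hc hM' hfp p P with h | ⟨n, ⟨e⟩⟩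
  · have h2 : IsCyclic (⊤ : Subgroup (S.subgroupOf L)) := by
      rw [← hPtop]; exact h
    have h3 : IsCyclic (S.subgroupOf L) := Subgroup.topEquiv.isCyclic.1 h2
    exact (Subgroup.subgroupOfEquivOfLe hSL).isCyclic.1 h3
  · exfalso
    have h1 : Nat.card P = 4 * 2 ^ n := by
      rw [Nat.card_congr e.toEquiv, Nat.card_eq_fintype_card, QuaternionGroup.card]
    obtain ⟨m, hm⟩ := IsPGroup.iff_card.1 P.isPGroup'
    have : 2 ∣ p ^ m := by rw [← hm, h1]; omega
    have := Nat.prime_two.dvd_of_dvd_pow this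
    exact hp2 ((Nat.prime_dvd_prime_iff_eq Nat.prime_two hp.out).1 this).symm

/-- If there is a nontrivial normal subgroup of order prime to 13, then 13-subgroups have order at
most 13. -/
theorem Ord.card_dvd (h : Ord G) (M S : Subgroup G) [M.Normal] (hM : M ≠ ⊥)
    (hM13 : ¬ 13 ∣ Nat.card M) (hS : IsPGroup 13 S) : Nat.card S ∣ 13 := by
  have hMS : M ⊓ S = ⊥ := by
    rw [eq_bot_iff]
    rintro x ⟨hx, hx'⟩
    obtain ⟨k, hk⟩ := hS ⟨x, hx'⟩
    have hk' : x ^ 13 ^ k = 1 := by simpa [Subtype.ext_iff] using hk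
    have h1 : orderOf x ∣ 13 ^ k := orderOf_dvd_of_pow_eq_one hk'
    have h2 : orderOf x ∣ Nat.card M := by
      have := orderOf_dvd_natCard (⟨x, hx⟩ : M)
      rwa [Subgroup.orderOf_mk] at this
    have h3 : Nat.Coprime (13 ^ k) (Nat.card M) :=
      Nat.Coprime.pow_left k ((Nat.Prime.coprime_iff_not_dvd (by norm_num)).2 hM13)
    have := Nat.dvd_gcd h1 h2
    rw [h3] at this
    rw [mem_bot]
    exact orderOf_eq_one_iff.1 (Nat.dvd_one.1 this)
  have hcyc : IsCyclic S := by
    apply cyclic_of_fpf (p := 13) (by norm_num) M S hM hS hMS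
    intro s hs hs1 m hm hc
    have hs13 : orderOf s = 13 := by
      obtain ⟨k, hk⟩ := hS ⟨s, hs⟩
      have hk' : s ^ 13 ^ k = 1 := by simpa [Subtype.ext_iff] using hk
      obtain ⟨j, -, hj⟩ := (Nat.dvd_prime_pow (by norm_num : Nat.Prime 13)).1
        (orderOf_dvd_of_pow_eq_one hk')
      have h1 := h s
      rw [hj] at h1
      rcases Nat.lt_or_ge j 1 with h2 | h2
      · interval_cases j
        rw [pow_zero] at hj
        exact absurd (orderOf_eq_one_iff.1 hj) hs1
      · rcases Nat.lt_or_ge j 2 with h3 | h3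
        · interval_cases j
          simpa using hj
        · exfalso
          have : 13 ^ 2 ≤ 13 ^ j := Nat.pow_le_pow_right (by norm_num) h3
          omega
    rcases h.commute hs13 hc.symm with h1 | h1
    · exact orderOf_eq_one_iff.1 h1
    · exfalso
      apply hM13
      rw [← h1]
      have := orderOf_dvd_natCard (⟨m, hm⟩ : M)
      rwa [Subgroup.orderOf_mk] at this
  obtain ⟨y, hy⟩ := hcyc.exists_generator
  have h1 : Nat.card S = orderOf (y : G) := by
    rw [Subgroup.orderOf_coe, ← Nat.card_zpowers, (eq_top_iff.2 (fun z _ => hy z) : zpowers y = ⊤),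
      Subgroup.card_top]
  obtain ⟨m, hm⟩ := IsPGroup.iff_card.1 hS
  have h2 := h (y : G)
  rw [← h1, hm] at h2
  rw [hm]
  rcases Nat.lt_or_ge m 2 with h3 | h3
  · interval_cases m <;> norm_num
  · exfalso
    have : 13 ^ 2 ≤ 13 ^ m := Nat.pow_le_pow_right (by norm_num) h3
    omega

end

end Cfsg.Agent.H406.SolvThirteen
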